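import Mathlib.GroupTheory.Sylow
import Mathlib.GroupTheory.Nilpotent
import Mathlib.GroupTheory.Commutator.Basic
import Mathlib.Algebra.Group.Subgroup.Pointwise

/-!
TI p-subgroups: a TI p-subgroup normalised by an equally large one with trivial intersection commutes with it.
-/

set_option autoImplicit false

namespace CfsgLib.TISub

open scoped commutatorElement

variable {G : Type*} [Group G]

theorem mem_map_conj {A : Subgroup G} {g x : G} :
    x ∈ A.map (MulAut.conj g).toMonoidHom ↔ g⁻¹ * x * g ∈ A := by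
  constructor
  · rintro ⟨a, ha, rfl⟩
    simpa [mul_assoc] using ha
  · intro h
    exact ⟨_, h, by simp [mul_assoc]⟩

theorem map_conj_map_conj (A : Subgroup G) (g h : G) :
    (A.map (MulAut.conj g).toMonoidHom).map (MulAut.conj h).toMonoidHom
      = A.map (MulAut.conj (h * g)).toMonoidHom := by
  ext x
  simp only [mem_map_conj, mul_inv_rev, mul_assoc]

theorem card_map_conj (A : Subgroup G) (g : G) :
    Nat.card ↥(A.map (MulAut.conj g).toMonoidHom) = Nat.card ↥A :=
  Subgroup.card_map_of_injective (MulAut.conj g).injective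

/-- The TI condition passes to conjugates. -/
theorem ti_conj {A : Subgroup G}
    (h : ∀ g : G, A.map (MulAut.conj g).toMonoidHom = A ∨ A.map (MulAut.conj g).toMonoidHom ⊓ A = ⊥)
    (k : G) (g : G) :
    (A.map (MulAut.conj k).toMonoidHom).map (MulAut.conj g).toMonoidHom = A.map (MulAut.conj k).toMonoidHom ∨
      (A.map (MulAut.conj k).toMonoidHom).map (MulAut.conj g).toMonoidHom ⊓ A.map (MulAut.conj k).toMonoidHom = ⊥ := by
  rcases h (k⁻¹ * (g * k)) with h1 | h1
  · left
    have h2 := congrArg (Subgroup.map (MulAut.conj k).toMonoidHom) h1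
    rw [map_conj_map_conj, mul_inv_cancel_left] at h2
    rw [map_conj_map_conj]
    exact h2
  · right
    have h2 := congrArg (Subgroup.map (MulAut.conj k).toMonoidHom) h1
    rw [Subgroup.map_inf _ _ _ (MulAut.conj k).injective, map_conj_map_conj, mul_inv_cancel_left,
      Subgroup.map_bot] at h2
    rw [map_conj_map_conj]
    exact h2

/-- If `x ∈ A` is nontrivial and its conjugate by `g` is in `A`, then `g` normalises the TI subgroup `A`. -/
theorem mem_normalizer_of_ti {A : Subgroup G} {g : G}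
    (h : A.map (MulAut.conj g).toMonoidHom = A ∨ A.map (MulAut.conj g).toMonoidHom ⊓ A = ⊥)
    {x : G} (hx : x ∈ A) (hx1 : x ≠ 1) (hgx : g * x * g⁻¹ ∈ A) :
    g ∈ Subgroup.normalizer (A : Set G) := by
  rcases h with h | h
  · rw [Subgroup.mem_normalizer_iff]
    intro y
    constructor
    · intro hy
      rw [← h]
      exact ⟨y, hy, by simp⟩
    · intro hy
      rw [← h] at hy
      simpa [mem_map_conj, mul_assoc] using hy
  · exfalso
    have : g * x * g⁻¹ ∈ A.map (MulAut.conj g).toMonoidHom ⊓ A :=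
      ⟨⟨x, hx, by simp⟩, hgx⟩
    rw [h, Subgroup.mem_bot] at this
    exact hx1 (conj_eq_one_iff.mp this)

theorem map_conj_eq_of_mem_normalizer {A : Subgroup G} {g : G}
    (hg : g ∈ Subgroup.normalizer (A : Set G)) : A.map (MulAut.conj g).toMonoidHom = A := by
  ext x
  rw [mem_map_conj, Subgroup.mem_normalizer_iff.mp hg (g⁻¹ * x * g)]
  simp [mul_assoc]

theorem mem_normalizer_of_map_conj_eq {A : Subgroup G} {g : G}
    (h : A.map (MulAut.conj g).toMonoidHom = A) : g ∈ Subgroup.normalizer (A : Set G) := by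
  rw [Subgroup.mem_normalizer_iff]
  intro y
  have : g * y * g⁻¹ ∈ A.map (MulAut.conj g).toMonoidHom ↔ y ∈ A := by
    rw [mem_map_conj]; simp [mul_assoc]
  rw [h] at this
  exact this.symm

/-- `A, B` are p-subgroups, `B` is TI, `|A| ≤ |B|`, `A ∩ B = 1` and `B` normalises `A`: then `[A,B] = 1`. -/
theorem commutator_eq_bot_of_ti [Finite G] (p : ℕ) [Fact p.Prime] (A B : Subgroup G)
    (hA : IsPGroup p ↥A) (hB : IsPGroup p ↥B)
    (hBti : ∀ g : G, B.map (MulAut.conj g).toMonoidHom = B ∨ B.map (MulAut.conj g).toMonoidHom ⊓ B = ⊥)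
    (hle : Nat.card ↥A ≤ Nat.card ↥B) (hAB : A ⊓ B = ⊥) (hN : B ≤ Subgroup.normalizer (A : Set G)) :
    ⁅A, B⁆ = ⊥ := by
  by_cases hcase : A ≤ Subgroup.normalizer (B : Set G)
  · rw [eq_bot_iff, ← hAB, Subgroup.commutator_le]
    intro a ha b hb
    refine ⟨?_, ?_⟩
    · rw [commutatorElement_def, mul_assoc, mul_assoc]
      refine A.mul_mem ha ?_
      rw [← mul_assoc]
      exact (Subgroup.mem_normalizer_iff.mp (hN hb) _).mp (A.inv_mem ha)
    · exact B.mul_mem ((Subgroup.mem_normalizer_iff.mp (hcase ha) _).mp hb) (B.inv_mem hb)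
  exfalso
  have hP : IsPGroup p ↥(B ⊔ A) := hB.to_sup_of_normal_right' hA hN
  have hPA : B ⊔ A ≤ Subgroup.normalizer (A : Set G) := sup_le hN Subgroup.le_normalizer
  have := hP.isNilpotent
  have hlt : (Subgroup.normalizer (B : Set G)).subgroupOf (B ⊔ A) < ⊤ := by
    rw [lt_top_iff_ne_top]
    intro h
    exact hcase (le_trans le_sup_right (Subgroup.subgroupOf_eq_top.mp h))
  obtain ⟨x, hx, hxR⟩ := SetLike.exists_of_lt (Group.normalizerCondition_of_isNilpotent _ hlt)
  have hxR' : (x : G) ∉ Subgroup.normalizer (B : Set G) := hxR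
  let B' : Subgroup G := B.map (MulAut.conj (x : G)).toMonoidHom
  have hB'P : B' ≤ B ⊔ A := by
    intro y hy
    rw [mem_map_conj] at hy
    have h1 : (x : G)⁻¹ * y * (x : G) ∈ B ⊔ A := le_sup_left (α := Subgroup G) hy
    have h2 := (B ⊔ A).mul_mem ((B ⊔ A).mul_mem x.2 h1) ((B ⊔ A).inv_mem x.2)
    simpa [mul_assoc] using h2
  have hB'N : B' ≤ Subgroup.normalizer (B : Set G) := by
    intro y hy
    rw [mem_map_conj] at hy
    let b' : ↥(B ⊔ A) := ⟨_, le_sup_left (α := Subgroup G) hy⟩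
    have hb : b' ∈ (Subgroup.normalizer (B : Set G)).subgroupOf (B ⊔ A) := Subgroup.le_normalizer hy
    have h3 := (Subgroup.mem_normalizer_iff.mp hx b').mp hb
    have h4 : (x : G) * ((x : G)⁻¹ * y * (x : G)) * (x : G)⁻¹ ∈ Subgroup.normalizer (B : Set G) := h3
    simpa [mul_assoc] using h4
  have hBB' : B' ⊓ B = ⊥ := by
    rcases hBti (x : G) with h | h
    · exact absurd (mem_normalizer_of_map_conj_eq h) hxR'
    · exact h
  have hinj : Function.Injective
      (fun q : ↥B × ↥B' => (⟨(q.1 : G) * q.2, Subgroup.mul_mem _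
        ⟨le_sup_left (α := Subgroup G) q.1.2, Subgroup.le_normalizer q.1.2⟩ ⟨hB'P q.2.2, hB'N q.2.2⟩⟩ :
          ↥((B ⊔ A) ⊓ Subgroup.normalizer (B : Set G)))) := by
    intro q r h
    exact Subgroup.mul_injective_of_disjoint (disjoint_iff.mpr (inf_comm B' B ▸ hBB'))
      (congrArg Subtype.val h)
  have hsurj : Function.Surjective
      (fun q : ↥B × ↥(A ⊓ Subgroup.normalizer (B : Set G)) => (⟨(q.1 : G) * q.2, Subgroup.mul_mem _
        ⟨le_sup_left (α := Subgroup G) q.1.2, Subgroup.le_normalizer q.1.2⟩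
        ⟨le_sup_right (α := Subgroup G) q.2.2.1, q.2.2.2⟩⟩ :
          ↥((B ⊔ A) ⊓ Subgroup.normalizer (B : Set G)))) := by
    rintro ⟨r, hr⟩
    have hr1 : r ∈ ((B ⊔ A : Subgroup G) : Set G) := hr.1
    rw [Subgroup.coe_mul_of_left_le_normalizer_right B A hN] at hr1
    obtain ⟨b, hb, a, ha, hab⟩ := hr1
    dsimp only at hab
    refine ⟨(⟨b, hb⟩, ⟨a, ha, ?_⟩), Subtype.ext hab⟩
    have : a = b⁻¹ * r := by rw [← hab, inv_mul_cancel_left]
    rw [this]
    exact Subgroup.mul_mem _ (Subgroup.le_normalizer (B.inv_mem hb)) hr.2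
  have h1 := Nat.card_le_card_of_injective _ hinj
  have h2 := Nat.card_le_card_of_surjective _ hsurj
  rw [Nat.card_prod] at h1 h2
  rw [card_map_conj] at h1
  have h3 := Nat.le_of_mul_le_mul_left (le_trans h1 h2) Nat.card_pos
  have h4 : Nat.card ↥(A ⊓ Subgroup.normalizer (B : Set G)) < Nat.card ↥A := by
    refine lt_of_le_of_ne (Subgroup.card_le_of_le inf_le_left) fun h => hcase ?_
    rw [← Subgroup.eq_of_le_of_card_ge inf_le_left h.ge]
    exact inf_le_right
  omega

end CfsgLib.TISub
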